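import Mathlib
import Cfsg.Agent.Lib.Helper83.MinSU.DefsO

/-! Definitions for the minimal index of `PSU_n(2)`, `n ≥ 6` even (S2153). -/

set_option autoImplicit false

namespace Cfsg.Agent.Lib.Helper80.MinSU2

/-- The number of nonisotropic points of the unitary space of even dimension `n` over `F_4`. -/
def ME (n : ℕ) : ℕ := 2 ^ (n - 1) * (2 ^ n - 1) / 3

end Cfsg.Agent.Lib.Helper80.MinSU2
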