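import Mathlib
import Cfsg.Agent.Lib.Helper83.MinSU.MainO
import Cfsg.Agent.Lib.Helper80.MinSU2.Defs
import Cfsg.Agent.Lib.Helper65.MinSU2.tNUM
import Cfsg.Agent.Lib.Helper89.MinSU2.tS1
import Cfsg.Agent.Lib.Helper22.MinSU2.tTWO
import Cfsg.Agent.Lib.Helper1.MinSU2.tWBI
import Cfsg.Agent.Lib.Helper89.MinSU2.tEND

set_option autoImplicit false

namespace Cfsg.Agent.Lib.Helper80.MinSU2

open Matrix Cfsg.Agent.Lib.Helper13 Cfsg.Agent.Lib.Helper5 Cfsg.Agent.Lib.Helper57.RootSU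
open Cfsg.Agent.Lib.Helper81.MinSU Cfsg.Agent.Lib.Helper83.MinSU

variable {F : Type*} [Field F] [Fintype F] {m n : ℕ}

/-- The inductive step, `q = 2`, even dimension `m + 2 ≥ 8`. -/
theorem main_step_t (hF : Fintype.card F = 2 ^ 2) (hm : 6 ≤ m) (he : Even m)
    (hWB : WB F 2 m) (H : Subgroup (Cfsg.SU (m + 2) F 2))
    (hH : H ≠ ⊤) : ME (m + 2) ≤ H.index := by
  have he2 : Even (m + 2) := he.add even_two
  by_cases hBig : HasBig hF H
  · exact Cfsg.Agent.Lib.Helper89.MinSU2.step1 hF (by omega) he2 H hH hBig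
  obtain ⟨e, L, he0, hee, hrho, heps⟩ := exists_loc hF m (by omega)
  obtain ⟨W, hWn, hWd, hWm, hWf⟩ := exists_iotaW (q := 2) (F := F) hF m
  have heut : ∀ (w : Fin m → F) (c : F), Cfsg.hermForm m F 2 w w = 0 → c + c ^ 2 = 0 →
      ((L.eps (ut hF w c) : Pe 2 e) : Cfsg.SU (m + 2) F 2) = ut hF (iota w) c := by
    intro w c hw hc
    exact eq_ut_iota hF w c hw hc _ (heps _)
  have key : ∀ g : Cfsg.SU (m + 2) F 2,
      ((cj g H).subgroupOf (Pe 2 e)).index ≤ H.index ∧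
      (∀ a : F, a + a ^ 2 = 0 → (L.rho 0 a ∈ (cj g H).subgroupOf (Pe 2 e) ↔
        ut hF (g.1.1 *ᵥ e) a ∈ H)) ∧
      (∀ (x : Pe 2 e) (w : Fin m → F) (c : F), Cfsg.hermForm m F 2 w w = 0 → c + c ^ 2 = 0 →
        x * L.eps (ut hF w c) * x⁻¹ ∈ (cj g H).subgroupOf (Pe 2 e) →
          (g * x) * ut hF (iota w) c * (g * x)⁻¹ ∈ H) := by
    intro g
    refine ⟨(relIndex_le_index' _ _).trans (index_cj g H).le, ?_, ?_⟩
    · intro a ha
      rw [Subgroup.mem_subgroupOf, hrho a ha, ut_mem_cj hF g H hee ha]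
    · intro x w c hw hc h
      rw [Subgroup.mem_subgroupOf, mem_cj] at h
      simp only [Subgroup.coe_mul, Subgroup.coe_inv, heut w c hw hc] at h
      have e1 : g * ↑x * ut hF (iota w) c * (g * ↑x)⁻¹
          = g * (↑x * ut hF (iota w) c * (↑x)⁻¹) * g⁻¹ := by group
      rw [e1]
      exact h
  obtain ⟨u, hu, huu, c0, hc0, hu0⟩ : ∃ u : Fin (m + 2) → F, u ≠ 0 ∧
      Cfsg.hermForm (m + 2) F 2 u u = 0 ∧ ∃ c : F, c + c ^ 2 = 0 ∧ ut hF u c ∉ H := by
    by_contra hcon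
    push Not at hcon
    exact hH (eq_top_of_all hF (by omega) H hcon)
  have hc1 : c0 = 1 := by
    rcases skew_two hF hc0 with h | h
    · exfalso
      apply hu0
      rw [h, ut_zero hF huu]
      exact H.one_mem
    · exact h
  subst hc1
  obtain ⟨g, hg⟩ := exists_su_map hF (by omega) e u he0 hu hee huu
  obtain ⟨k1, k2, k4⟩ := key g
  have hA : L.rho 0 1 ∉ (cj g H).subgroupOf (Pe 2 e) := by
    intro h
    rw [k2 1 hc0, hg] at h
    exact hu0 h
  rcases Cfsg.Agent.Lib.Helper22.MinSU2.local_two L _ hF (by omega) he hWB hA with h | ⟨hBb, hS1, -, -⟩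
  · exact ((Cfsg.Agent.Lib.Helper65.MinSU2.ME_le_NU he2 (by omega)).trans h).trans k1
  exfalso
  obtain ⟨z, E, hz3, hfix, hEn, hEd, hcomm⟩ :=
    Cfsg.Agent.Lib.Helper84.MinSU.O.exists_z hF (show 5 ≤ m by omega)
  obtain ⟨x, hx1, hx⟩ := Cfsg.Agent.Lib.Helper92.MinSU.O.ztrick L _ hF hA hBb hS1 z hz3 hfix
  have hA' : L.rho 0 1 ∉ ((cj g H).subgroupOf (Pe 2 e)).comap (MulAut.conj x).toMonoidHom := by
    intro h
    apply hA
    have h2 : x * L.rho 0 1 * x⁻¹ ∈ (cj g H).subgroupOf (Pe 2 e) := h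
    rw [L.conj_center x 1 hc0, hx1] at h2
    simpa using h2
  have hk := Cfsg.Agent.Lib.Helper92.MinSU.O.kill_b L _ hF hA' E hEn hEd
    (fun w hw hww => hx _ (hcomm w hw hww))
  apply hBig
  refine Cfsg.Agent.Lib.Helper1.MinSU.O.hasBig_of_eps hF H (g * x) E hEn (Or.inr hEd) ?_
  intro w hw hww c hc
  rcases skew_two hF hc with h | h
  · rw [h, ut_zero hF (by rw [hWf]; exact hww), mul_one, mul_inv_cancel]
    exact H.one_mem
  · rw [h]
    exact k4 x w 1 hww hc0 (hk w hw hww)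

/-- The lower bound in `SU_n(2)`, `n = 2k + 6`. -/
theorem main_su_t (hF : Fintype.card F = 2 ^ 2) (k : ℕ) :
    ∀ H : Subgroup (Cfsg.SU (2 * k + 6) F 2), H ≠ ⊤ → ME (2 * k + 6) ≤ H.index := by
  induction k with
  | zero =>
    intro H hH
    have h := Cfsg.Agent.Lib.Helper89.MinSU2.end6 hF H hH
    have e : ME (2 * 0 + 6) = 672 := by norm_num [ME]
    rw [e]
    exact h
  | succ k IH =>
    intro H hH
    have he : Even (2 * k + 6) := ⟨k + 3, by ring⟩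
    exact main_step_t (m := 2 * k + 6) hF (by omega) he (Cfsg.Agent.Lib.Helper1.MinSU2.wb_of_ih hF (by omega) he IH) H hH

end Cfsg.Agent.Lib.Helper80.MinSU2
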